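import Cfsg.Agent.Leech.Aut
import Cfsg.Prelude.Def_Spor_Conway

set_option autoImplicit false

/-!
The representation of the second Conway group of degree 23 modulo 13.
-/

namespace CfsgLib.H29.Co2Rep

open Cfsg CfsgLib.Leech Matrix

/-- Reduction modulo 13. -/
def red (x : GolayPt → ℤ) : GolayPt → ZMod 13 := fun i => (x i : ZMod 13)

/-- An element as an element of `Co0`. -/
def up (g : ↥Cfsg.Spor.Co2) : Co0 := ⟨g.1, g.2.1⟩

/-- The matrix modulo 13. -/
def M (g : ↥Cfsg.Spor.Co2) : Matrix GolayPt GolayPt (ZMod 13) :=
  Matrix.of fun j i => 5 * red ((up g).1 (eight i)).1 j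

theorem five_eight (z : ZMod 13) : 5 * (8 * z) = z := by
  rw [← mul_assoc, show (5 * 8 : ZMod 13) = 1 from by decide, one_mul]

theorem M_mulVec (g : ↥Cfsg.Spor.Co2) (v : leechLattice) : M g *ᵥ red v.1 = red ((up g).1 v).1 := by
  funext j
  have h := congrArg (Int.cast : ℤ → ZMod 13) (eight_smul (up g) v j)
  push_cast at h
  simp only [mulVec, dotProduct, M, Matrix.of_apply, red]
  rw [← five_eight (((up g).1 v).1 j : ZMod 13), h, Finset.mul_sum]
  exact Finset.sum_congr rfl fun i _ => by ring

theorem red_eight (i : GolayPt) : red (eight i).1 = Pi.single i 8 := by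
  funext j
  by_cases h : j = i
  · subst h; simp [red, eight]
  · simp [red, eight, h]

theorem M_mul (g h : ↥Cfsg.Spor.Co2) : M (g * h) = M g * M h := by
  ext j i
  have := congrFun (M_mulVec g ((up h).1 (eight i))) j
  change 5 * red ((up g).1 ((up h).1 (eight i))).1 j = _
  rw [← this, mulVec, dotProduct, Matrix.mul_apply, Finset.mul_sum]
  exact Finset.sum_congr rfl fun k _ => by simp only [M, Matrix.of_apply]; ring

/-- The fixed vector, scaled. -/
def w : GolayPt → ZMod 13 := fun p => if p = none ∨ p = some 0 then 1 else 0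

theorem red_u : red Cfsg.Spor.vecU = fun p => 4 * w p := by
  funext p
  by_cases h : p = none ∨ p = some 0 <;> simp [red, Cfsg.Spor.vecU, w, h]

theorem M_fix (g : ↥Cfsg.Spor.Co2) : M g *ᵥ w = w := by
  have h := M_mulVec g Cfsg.Spor.leechU
  rw [show (up g).1 Cfsg.Spor.leechU = Cfsg.Spor.leechU from g.2.2] at h
  change M g *ᵥ red Cfsg.Spor.vecU = red Cfsg.Spor.vecU at h
  rw [red_u, show (fun p => 4 * w p) = (4 : ZMod 13) • w from rfl, mulVec_smul] at h
  funext p
  have := congrArg (fun z => (10 : ZMod 13) * z) (congrFun h p)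
  simp only [Pi.smul_apply, smul_eq_mul, ← mul_assoc, show (10 * 4 : ZMod 13) = 1 from by decide,
    one_mul] at this
  exact this

theorem sum_w (x : GolayPt → ZMod 13) : ∑ p, x p * w p = x none + x (some 0) := by
  rw [Fintype.sum_option]
  simp [w]

theorem M_fix_apply (g : ↥Cfsg.Spor.Co2) (j : GolayPt) : M g j none + M g j (some 0) = w j := by
  rw [← congrFun (M_fix g) j, mulVec, dotProduct, sum_w]

/-- The projection of a column. -/
def proj (y : GolayPt → ZMod 13) (s : ZMod 23) : ZMod 13 := y (some s) - if s = 0 then y none else 0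

/-- The representation on the quotient by the fixed vector. -/
def R (g : ↥Cfsg.Spor.Co2) : Matrix (ZMod 23) (ZMod 23) (ZMod 13) :=
  Matrix.of fun s t => proj (fun p => M g p (some t)) s

theorem R_mul (g h : ↥Cfsg.Spor.Co2) : R (g * h) = R g * R h := by
  ext s t
  set y : GolayPt → ZMod 13 := fun p => M h p (some t) with hy
  set A : GolayPt → ZMod 13 := fun p => M g (some s) p - if s = 0 then M g none p else 0 with hA
  have hA0 : A none + A (some 0) = 0 := by
    have h1 := M_fix_apply g (some s)
    have h2 := M_fix_apply g none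
    simp only [hA]
    by_cases hs : s = 0
    · subst hs
      simp [w] at h1 h2 ⊢
      linear_combination h1 - h2
    · simp [w, hs] at h1 ⊢
      linear_combination h1
  have lhs : R (g * h) s t = ∑ p, A p * y p := by
    simp only [R, Matrix.of_apply, proj, M_mul, Matrix.mul_apply, hA, hy]
    by_cases hs : s = 0
    · simp only [hs, if_true, sub_mul, Finset.sum_sub_distrib]
    · simp only [hs, if_false, sub_zero]
  have rhs : (R g * R h) s t = ∑ k : ZMod 23, A (some k) * (y (some k) - if k = 0 then y none else 0) := by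
    simp only [Matrix.mul_apply, R, Matrix.of_apply, proj, hA, hy]
  rw [lhs, rhs, Fintype.sum_option]
  simp only [mul_sub, Finset.sum_sub_distrib, mul_ite, mul_zero, Finset.sum_ite_eq', Finset.mem_univ,
    if_true]
  linear_combination (y none) * hA0

theorem R_one : R 1 = 1 := by
  have hM : ∀ j i, M (1 : ↥Cfsg.Spor.Co2) j i = if j = i then 1 else 0 := fun j i => by
    change 5 * red (eight i).1 j = _
    rw [red_eight]
    by_cases h : j = i
    · subst h; simp; decide
    · simp [h]
  ext s t
  simp only [R, Matrix.of_apply, proj, hM, Matrix.one_apply]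
  by_cases hs : s = 0 <;> simp [hs, eq_comm]

theorem dot_pres (g : ↥Cfsg.Spor.Co2) (v x : leechLattice) :
    dotInt ((up g).1 v).1 ((up g).1 x).1 = dotInt v.1 x.1 := by
  have h1 := (up g).2.2 (v + x)
  rw [(up g).2.1 v x, AddSubgroup.coe_add, AddSubgroup.coe_add, sqNorm_add, sqNorm_add,
    (up g).2.2 v, (up g).2.2 x] at h1
  omega

theorem R_kernel (g : ↥Cfsg.Spor.Co2) (h : R g = 1) : g = 1 := by
  have hcol : ∀ t : ZMod 23, M g none (some t) = 0 := by
    intro t
    have h1 := congrArg (Int.cast : ℤ → ZMod 13) (dot_pres g (eight (some t)) Cfsg.Spor.leechU)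
    rw [show (up g).1 Cfsg.Spor.leechU = Cfsg.Spor.leechU from g.2.2] at h1
    simp only [dotInt, Int.cast_sum, Int.cast_mul] at h1
    have e1 : ∀ (v : leechLattice), ∑ p, ((v.1 p : ZMod 13)) * (Cfsg.Spor.leechU.1 p : ZMod 13) =
        4 * (red v.1 none + red v.1 (some 0)) := fun v => by
      rw [← sum_w, Finset.mul_sum]
      refine Finset.sum_congr rfl fun p _ => ?_
      change red v.1 p * red Cfsg.Spor.vecU p = _
      rw [red_u]; ring
    rw [e1, e1, red_eight] at h1
    have h2 := congrFun (congrFun h 0) t
    simp only [R, Matrix.of_apply, proj, if_true, M, Matrix.one_apply] at h2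
    simp only [M, Matrix.of_apply]
    by_cases ht : t = 0
    · subst ht
      simp at h1 h2
      have h5 := five_eight
      generalize red ((up g).1 (eight (some 0))).1 none = a at h1 h2 ⊢
      generalize red ((up g).1 (eight (some 0))).1 (some 0) = b at h1 h2 ⊢
      revert h1 h2 a b
      decide
    · have ht' : (0 : ZMod 23) ≠ t := Ne.symm ht
      simp [ht'] at h1 h2
      generalize red ((up g).1 (eight (some t))).1 none = a at h1 h2 ⊢
      generalize red ((up g).1 (eight (some t))).1 (some 0) = b at h1 h2 ⊢
      revert h1 h2 a b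
      decide
  have hM : ∀ j i, M g j i = if j = i then 1 else 0 := by
    have hs : ∀ j t, M g j (some t) = if j = some t then 1 else 0 := by
      rintro (_ | s) t
      · simp [hcol t]
      · have h2 := congrFun (congrFun h s) t
        simp only [R, Matrix.of_apply, proj, hcol t, Matrix.one_apply, ite_self, sub_zero] at h2
        rw [h2]
        simp [eq_comm]
    rintro j (_ | t)
    · have h1 := M_fix_apply g j
      rw [hs] at h1
      rcases j with _ | s
      · simp [w] at h1 ⊢; exact h1
      · by_cases hs0 : s = 0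
        · subst hs0; simp [w] at h1 ⊢; exact h1
        · simp [w, hs0] at h1 ⊢; exact h1
    · exact hs j t
  -- congruences to short vectors force equality
  have hfix : ∀ i, (up g).1 (eight i) = eight i := by
    intro i
    set d := (((up g).1 (eight i)) - eight i : leechLattice) with hd
    have hmod : ∀ j, (13 : ℤ) ∣ d.1 j := by
      intro j
      rw [← show (((13 : ℕ) : ℤ)) = 13 from rfl, ← ZMod.intCast_zmod_eq_zero_iff_dvd]
      have h1 : 5 * red ((up g).1 (eight i)).1 j = if j = i then 1 else 0 := hM j i
      have h2 : red (eight i).1 j = if j = i then 8 else 0 := by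
        rw [red_eight]; by_cases h : j = i <;> simp [h]
      rw [hd, AddSubgroupClass.coe_sub, Pi.sub_apply, Int.cast_sub]
      change red _ j - red _ j = 0
      rw [h2]
      generalize red ((up g).1 (eight i)).1 j = a at h1 ⊢
      split_ifs at h1 ⊢ <;> (revert h1; revert a; decide)
    have hn : sqNorm d.1 ≤ 256 := by
      have h1 := (up g).2.2 (eight i)
      rw [show (eight i).1 = Pi.single i 8 from rfl, sqNorm_single] at h1
      have : sqNorm d.1 ≤ 2 * sqNorm ((up g).1 (eight i)).1 + 2 * sqNorm (eight i).1 := by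
        simp only [sqNorm, Finset.mul_sum, ← Finset.sum_add_distrib, hd, AddSubgroupClass.coe_sub, Pi.sub_apply]
        refine Finset.sum_le_sum fun p _ => ?_
        nlinarith [sq_nonneg (((up g).1 (eight i)).1 p + (eight i).1 p)]
      rw [h1, show (eight i).1 = Pi.single i 8 from rfl, sqNorm_single] at this
      linarith
    have hzero : ∀ j, d.1 j = 0 := by
      by_contra hne
      push Not at hne
      obtain ⟨j, hj⟩ := hne
      have big : ∀ k, d.1 k ≠ 0 → 169 ≤ d.1 k ^ 2 := fun k hk => by
        obtain ⟨c, hc⟩ := hmod k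
        have hc0 : c ≠ 0 := fun e => hk (by rw [hc, e, mul_zero])
        have := one_le_sq_of_ne_zero hc0
        rw [hc, mul_pow]; linarith
      have hone : ∀ k, k ≠ j → d.1 k = 0 := fun k hk => by
        by_contra hk0
        have : d.1 j ^ 2 + d.1 k ^ 2 ≤ sqNorm d.1 := by
          rw [sqNorm, ← Finset.sum_pair (f := fun p => d.1 p ^ 2) hk.symm]
          exact Finset.sum_le_sum_of_subset_of_nonneg (Finset.subset_univ _) fun p _ _ => sq_nonneg _
        have := big j hj
        have := big k hk0
        omega
      obtain ⟨m, hm, hpar, -, -⟩ := mem_lattice.1 d.2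
      obtain ⟨k, hk⟩ : ∃ k, k ≠ j := exists_ne j
      have hev := hpar j
      have h0 := hpar k
      rw [hone k hk] at h0
      obtain ⟨c, hc⟩ := hmod j
      have hjle : d.1 j ^ 2 ≤ 256 := le_trans (Finset.single_le_sum (f := fun p => d.1 p ^ 2)
        (fun p _ => sq_nonneg _) (Finset.mem_univ j)) hn
      have : -1 ≤ c ∧ c ≤ 1 := by
        constructor <;> nlinarith
      have hc0 : c ≠ 0 := fun e => hj (by rw [hc, e, mul_zero])
      omega
    exact sub_eq_zero.mp (Subtype.ext (funext hzero))
  apply Subtype.ext
  refine Equiv.ext fun v => Subtype.ext (funext fun j => ?_)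
  change ((up g).1 v).1 j = v.1 j
  have h1 := eight_smul (up g) v j
  simp only [hfix] at h1
  simp only [eight] at h1
  rw [Finset.sum_eq_single j (fun i _ hi => by simp [hi.symm]) (fun h => absurd (Finset.mem_univ j) h),
    Pi.single_eq_same] at h1
  linarith

theorem main : ∃ f : ↥Cfsg.Spor.Co2 →* GL (Fin 23) (ZMod 13), Function.Injective f := by
  let r : ↥Cfsg.Spor.Co2 →* Matrix (Fin 23) (Fin 23) (ZMod 13) :=
    { toFun := fun g => R g, map_one' := R_one, map_mul' := R_mul }
  refine ⟨r.toHomUnits, (injective_iff_map_eq_one _).mpr fun g hg => R_kernel g ?_⟩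
  exact congrArg Units.val hg

end CfsgLib.H29.Co2Rep
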